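import Mathlib
import Cfsg.Agent.Lib.Helper74.O720.Defs

set_option autoImplicit false
set_option linter.unusedSectionVars false

namespace Cfsg.Agent.Lib.Helper74.O720

variable {G : Type*} [Group G] [Finite G]

/-- [ORB] orbit-stabilizer for `H` acting on `G ⧸ M`. -/
theorem ORB (H M : Subgroup G) (g : G) :
    Nat.card (MulAction.orbit H (g : G ⧸ M)) * Nat.card (H ⊓ cj g M : Subgroup G) = Nat.card H := by
  have h1 : MulAction.stabilizer H (g : G ⧸ M) = (H ⊓ cj g M).subgroupOf H := by
    ext s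
    rw [MulAction.mem_stabilizer_iff, Subgroup.mem_subgroupOf, Subgroup.mem_inf]
    have : s • (g : G ⧸ M) = (s : G) • (g : G ⧸ M) := rfl
    rw [this, smul_coset_eq_iff]
    exact ⟨fun h => ⟨s.2, h⟩, fun h => h.2⟩
  have h2 : Nat.card (MulAction.stabilizer H (g : G ⧸ M)) = Nat.card (H ⊓ cj g M : Subgroup G) := by
    rw [h1]
    exact Nat.card_congr (Subgroup.subgroupOfEquivOfLe inf_le_left).toEquiv
  rw [← h2, ← Nat.card_prod]
  exact Nat.card_congr (MulAction.orbitProdStabilizerEquivGroup H (g : G ⧸ M))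

end Cfsg.Agent.Lib.Helper74.O720
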