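import Mathlib
import Cfsg.Agent.Lib.Helper74.O720.Defs
import Cfsg.Agent.Lib.Helper3.O720.ORB

set_option autoImplicit false
set_option linter.unusedSectionVars false

namespace Cfsg.Agent.Lib.Helper74.O720

variable {G : Type*} [Group G] [Finite G]

/-- [J2] the `M`-orbit `O` of `gM` has 6 points; pick a point outside `O ∪ {M}`; its orbit has at most 3 points. -/
theorem J2 (h : Nat.card G = 720) (M : Subgroup G) (hM : Nat.card M = 72) (g : G) (hg : g ∉ M)
    (h12 : Nat.card (Ig M g) = 12) : ∃ g' : G, g' ∉ M ∧ 24 ≤ Nat.card (Ig M g') := by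
  classical
  have hX : Nat.card (G ⧸ M) = 10 := by
    have := Subgroup.card_eq_card_quotient_mul_card_subgroup M
    rw [h, hM] at this; omega
  set pt : G ⧸ M := ((1 : G) : G ⧸ M) with hpt
  set O : Set (G ⧸ M) := MulAction.orbit M (g : G ⧸ M) with hO
  have hO6 : O.ncard = 6 := by
    have h1 := ORB M M g
    have h2 : Nat.card (M ⊓ cj g M : Subgroup G) = 12 := h12
    rw [h2, hM, Nat.card_coe_set_eq] at h1
    change O.ncard * 12 = 72 at h1
    omega
  have hfix : ∀ m : M, m • pt = pt := by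
    intro m
    have : m • pt = (m : G) • ((1 : G) : G ⧸ M) := rfl
    rw [this, smul_coset_eq_iff, cj_one]
    exact m.2
  have hex : ∃ y : G ⧸ M, y ∉ O ∪ {pt} := by
    by_contra hcon
    push Not at hcon
    have h1 : O ∪ {pt} = Set.univ := Set.eq_univ_of_forall hcon
    have h2 : (O ∪ {pt}).ncard ≤ O.ncard + ({pt} : Set (G ⧸ M)).ncard := Set.ncard_union_le _ _
    rw [h1, Set.ncard_univ, hX, hO6, Set.ncard_singleton] at h2
    omega
  obtain ⟨y, hy⟩ := hex
  obtain ⟨g', rfl⟩ := QuotientGroup.mk_surjective y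
  have hyO : (g' : G ⧸ M) ∉ O := fun hh => hy (Or.inl hh)
  have hypt : (g' : G ⧸ M) ≠ pt := fun hh => hy (Or.inr hh)
  have hg' : g' ∉ M := by
    intro hh
    apply hypt
    rw [hpt, QuotientGroup.eq]
    simpa using hh
  refine ⟨g', hg', ?_⟩
  set O' : Set (G ⧸ M) := MulAction.orbit M (g' : G ⧸ M) with hO'
  have hd1 : Disjoint O' O := by
    rw [Set.disjoint_left]
    intro z hz hz2
    apply hyO
    have e1 : MulAction.orbit M z = MulAction.orbit M (g' : G ⧸ M) := MulAction.orbit_eq_iff.mpr hz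
    have e2 : MulAction.orbit M z = MulAction.orbit M (g : G ⧸ M) := MulAction.orbit_eq_iff.mpr hz2
    rw [hO, ← e2, e1]
    exact MulAction.mem_orbit_self _
  have hd2 : Disjoint (O' ∪ O) {pt} := by
    rw [Set.disjoint_singleton_right]
    rintro (hh | hh)
    · obtain ⟨m, hm⟩ := hh
      apply hypt
      have hm' : m • (g' : G ⧸ M) = pt := hm
      have : (g' : G ⧸ M) = m⁻¹ • pt := by rw [← hm', inv_smul_smul]
      rw [this, hfix]
    · obtain ⟨m, hm⟩ := hh
      have hm' : m • (g : G ⧸ M) = pt := hm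
      have h3 : (g : G ⧸ M) = pt := by
        have : (g : G ⧸ M) = m⁻¹ • pt := by rw [← hm', inv_smul_smul]
        rw [this, hfix]
      apply hg
      rw [hpt, QuotientGroup.eq] at h3
      simpa using h3
  have hcount : O'.ncard + 6 + 1 ≤ 10 := by
    have h1 : ((O' ∪ O) ∪ {pt}).ncard = (O' ∪ O).ncard + ({pt} : Set (G ⧸ M)).ncard :=
      Set.ncard_union_eq hd2
    have h2 : (O' ∪ O).ncard = O'.ncard + O.ncard := Set.ncard_union_eq hd1
    have h3 : ((O' ∪ O) ∪ {pt}).ncard ≤ (Set.univ : Set (G ⧸ M)).ncard :=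
      Set.ncard_le_ncard (Set.subset_univ _)
    rw [h1, h2, hO6, Set.ncard_singleton, Set.ncard_univ, hX] at h3
    exact h3
  have h4 := ORB M M g'
  rw [hM, Nat.card_coe_set_eq] at h4
  change O'.ncard * Nat.card (M ⊓ cj g' M : Subgroup G) = 72 at h4
  have h5 : O'.ncard ≤ 3 := by omega
  show 24 ≤ Nat.card (M ⊓ cj g' M : Subgroup G)
  by_contra hcon
  push Not at hcon
  have h6 : O'.ncard * Nat.card (M ⊓ cj g' M : Subgroup G) ≤ 3 * 23 :=
    Nat.mul_le_mul h5 (by omega)
  rw [h4] at h6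
  omega

end Cfsg.Agent.Lib.Helper74.O720
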